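import Cfsg.Agent.H837.E83.NM11Step

/-!
# S5925 box N3 (continued): the generators `x⁻¹, y, t, f` of `M11` (helper837)

`M11GenI v`: the letters are `x' = x⁻¹`, `y`, `t`, `f` (`x' f` has order 8, `f` normalises `⟨y, t, x'⁻¹ t x'⟩`); the test of
relations is `eqI`.
-/

set_option autoImplicit false

namespace Cfsg.Agent.H837.E83.NM11

open Cfsg

/-- the tables of `x⁻¹, y, t, f` -/
def tabI : ℕ → List ℕ
  | 0 => [10, 0, 1, 2, 3, 4, 5, 6, 7, 8, 9, 11]
  | 1 => [0, 3, 6, 9, 1, 4, 7, 10, 2, 5, 8, 11]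
  | 2 => [0, 9, 6, 3, 5, 4, 2, 8, 7, 1, 10, 11]
  | 3 => [11, 6, 1, 10, 8, 7, 9, 4, 5, 2, 3, 0]
  | _ => [0, 1, 2, 3, 4, 5, 6, 7, 8, 9, 10, 11]

/-- the action of a letter on the points `0, …, 11` -/
def apI (l i : ℕ) : ℕ := (tabI l).getD i 0

/-- the action of a word on the points -/
def evI (w : List ℕ) (i : ℕ) : ℕ := w.foldr (fun l j => apI l j) i

/-- the test for the equality of two words in `x⁻¹, y, t, f` -/
def eqI (w w' : List ℕ) : Bool := (List.range 12).all fun i => evI w i == evI w' i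

/-- the letter `x⁻¹` as `x^10` -/
def lx (l : ℕ) : List ℕ := if l = 0 then List.replicate 10 0 else [l]

theorem ev_append (w w' : List ℕ) (i : ℕ) : ev (w ++ w') i = ev w (ev w' i) := by
  unfold ev
  rw [List.foldr_append]

theorem ev_lx (l : ℕ) {i : ℕ} (hi : i < 12) : ev (lx l) i = apI l i := by
  have h : ∀ l : Fin 5, ∀ i : Fin 12, ev (lx l) i = apI l i := by decide +kernel
  rcases Nat.lt_or_ge l 5 with h1 | h1
  · exact h ⟨l, h1⟩ ⟨i, hi⟩
  · obtain ⟨n, rfl⟩ := Nat.exists_eq_add_of_le' h1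
    exact h 4 ⟨i, hi⟩

theorem ev_flat (w : List ℕ) {i : ℕ} (hi : i < 12) : ev (w.flatMap lx) i = evI w i := by
  induction w with
  | nil => rfl
  | cons l w ih =>
    rw [List.flatMap_cons, ev_append, ih]
    refine ev_lx l ?_
    rw [← ih]
    exact ev_lt _ hi

theorem eqI_eq (w w' : List ℕ) : eqI w w' = eqP (w.flatMap lx) (w'.flatMap lx) := by
  rw [Bool.eq_iff_iff, eqI, eqP, List.all_eq_true, List.all_eq_true]
  refine forall₂_congr fun i hi => ?_
  have hi' : i < 12 := List.mem_range.1 hi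
  rw [ev_flat w hi', ev_flat w' hi']

/-- `v 0, v 1, v 2, v 3` are `x⁻¹, y, t, f` in a group `M11` (the whole of `H`) -/
structure M11GenI {H : Type*} [Group H] (v : ℕ → H) : Prop where
  /-- the letters `x⁻¹, f` generate -/
  gen2 : Subgroup.closure {v 0, v 3} = ⊤
  /-- the letters `x⁻¹, y, t, f` generate -/
  gen4 : Subgroup.closure {v 0, v 1, v 2, v 3} = ⊤
  /-- **all relations** -/
  rel : ∀ w w' : List ℕ, eqI w w' = true ↔ (w.map v).prod = (w'.map v).prod
  /-- the other letters are trivial -/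
  triv : ∀ n, 4 ≤ n → v n = 1

/-- the letters `x⁻¹, y, t, f` -/
def inv0 {H : Type*} [Group H] (v : ℕ → H) : ℕ → H
  | 0 => (v 0)⁻¹
  | (n + 1) => v (n + 1)

theorem M11Gen.inv {H : Type*} [Group H] {v : ℕ → H} (h : M11Gen v) : M11GenI (inv0 v) := by
  have hw : ∀ w : List ℕ, (w.map (inv0 v)).prod = ((w.flatMap lx).map v).prod := by
    intro w
    induction w with
    | nil => rfl
    | cons l w ih =>
      rw [List.map_cons, List.prod_cons, ih, List.flatMap_cons, List.map_append, List.prod_append]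
      congr 1
      match l with
      | 0 =>
        show (v 0)⁻¹ = _
        rw [lx, if_pos rfl, List.map_replicate, List.prod_replicate, inv_eq_iff_mul_eq_one, ← pow_succ', h.x_pow]
      | (n + 1) =>
        rw [lx, if_neg (Nat.succ_ne_zero n)]
        simp [inv0]
  have h2 : Subgroup.closure {(v 0)⁻¹, v 3} = (⊤ : Subgroup H) := by
    rw [eq_top_iff, ← h.gen2, Subgroup.closure_le]
    rintro a (rfl | rfl)
    · exact inv_mem_iff.1 (Subgroup.subset_closure (Or.inl rfl))
    · exact Subgroup.subset_closure (Or.inr rfl)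
  refine ⟨h2, ?_, fun w w' => by rw [eqI_eq, h.rel, hw, hw], fun n hn => ?_⟩
  · rw [eq_top_iff, ← h2]
    refine Subgroup.closure_mono ?_
    rintro g (rfl | rfl)
    · exact Or.inl rfl
    · exact Or.inr (Or.inr (Or.inr rfl))
  · obtain ⟨m, rfl⟩ := Nat.exists_eq_add_of_le' hn
    exact h.triv (m + 4) hn

namespace M11GenI

variable {H : Type*} [Group H] {v : ℕ → H} (h : M11GenI v)

include h

/-- a relation between positive words -/
theorem eq (w w' : List ℕ) (he : eqI w w' = true) : (w.map v).prod = (w'.map v).prod := (h.rel w w').1 he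

/-- an inequality between positive words -/
theorem ne (w w' : List ℕ) (he : eqI w w' = false) : (w.map v).prod ≠ (w'.map v).prod := fun h1 => by
  have h2 := (h.rel w w').2 h1
  rw [he] at h2
  exact absurd h2 (by decide)

/-- the relations of `L₂(11)` -/
theorem rel3 : H828.E83.Rel (v 0) (v 1) (v 2) where
  x11 := by simpa [← mul_assoc, pow_succ] using h.eq [0, 0, 0, 0, 0, 0, 0, 0, 0, 0, 0] [] (by decide +kernel)
  x1 := by simpa using h.ne [0] [] (by decide +kernel)
  y5 := by simpa [← mul_assoc, pow_succ] using h.eq [1, 1, 1, 1, 1] [] (by decide +kernel)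
  y1 := by simpa using h.ne [1] [] (by decide +kernel)
  yx := by
    rw [mul_inv_eq_iff_eq_mul]
    simpa [← mul_assoc, pow_succ] using h.eq [1, 0] [0, 0, 0, 1] (by decide +kernel)
  tt := by simpa using h.eq [2, 2] [] (by decide +kernel)
  ty := by
    rw [mul_inv_eq_iff_eq_mul, eq_inv_mul_iff_mul_eq]
    simpa [← mul_assoc] using h.eq [1, 2, 1] [2] (by decide +kernel)
  xt := by simpa [← mul_assoc, pow_succ] using h.eq [0, 2, 0, 2, 0, 2] [] (by decide +kernel)

theorem f_sq : v 3 * v 3 = v 2 := by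
  simpa using h.eq [3, 3] [2] (by decide +kernel)

theorem f_y : v 3 * v 1 * (v 3)⁻¹ = v 1 ^ 2 := by
  rw [mul_inv_eq_iff_eq_mul]
  simpa [← mul_assoc, pow_succ] using h.eq [3, 1] [1, 1, 3] (by decide +kernel)

/-- helper788's relation of `Afa`: `f x f⁻¹ = (y x⁻¹) f (y t x x t)` -/
theorem f_x : v 3 * v 0 * (v 3)⁻¹ = v 1 * (v 0)⁻¹ * v 3 * (v 1 * v 2 * v 0 * v 0 * v 2) := by
  have hx : (v 0)⁻¹ = v 0 ^ 10 := by
    rw [inv_eq_iff_mul_eq_one, ← pow_succ', h.rel3.x11]
  rw [mul_inv_eq_iff_eq_mul, hx]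
  simpa [← mul_assoc, pow_succ] using
    h.eq [3, 0] [1, 0, 0, 0, 0, 0, 0, 0, 0, 0, 0, 3, 1, 2, 0, 0, 2, 3] (by decide +kernel)

theorem xf_pow : (v 0 * v 3) ^ 8 = 1 := by
  simpa [← mul_assoc, pow_succ] using h.eq [0, 3, 0, 3, 0, 3, 0, 3, 0, 3, 0, 3, 0, 3, 0, 3] [] (by decide +kernel)

end M11GenI

/-- **S5925 box N3**, second form -/
theorem mainI {H : Type*} [Group H] [Finite H] (hH : Spor.IsoM11 ↥(generalizedFittingSubgroup H)) :
    ∃ v : ℕ → H, M11GenI v := by
  obtain ⟨v, h⟩ := main hH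
  exact ⟨_, h.inv⟩

end Cfsg.Agent.H837.E83.NM11
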